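import Cfsg.Agent.H878.KerBase
import Cfsg.Prelude.Def_LieTypeChar
import Cfsg.Agent.S0243
import Cfsg.Agent.S0280
import Cfsg.Agent.S0293
import Cfsg.Agent.S2086
import Cfsg.Agent.S2089
import Cfsg.Agent.S2091
import Cfsg.Agent.S2092
import Cfsg.Agent.S2093
import Cfsg.Agent.S2096
import Cfsg.Agent.S2097
import Cfsg.Agent.S2098
import Cfsg.Agent.S2099
import Cfsg.Agent.S0246
import Cfsg.Agent.S0245

/-!
# Classical groups with a perfect central extension of even kernel (helper888)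

Classical groups in characteristic 2 of order divisible by `2 ^ 20` have no perfect central extension with kernel
of even order.
-/

set_option autoImplicit false

namespace Cfsg.Agent.H888.C6

open Cfsg Cfsg.Agent.H878

universe u v

variable {T : Type v} [Group T]

/-- `T` is a classical group in the odd characteristic `s` -/
def ClOdd (s : ℕ) (T : Type v) [Group T] : Prop :=
  IsPSLChar s T ∨ IsPSpChar s T ∨ IsPSUChar s T ∨ IsPOmegaOddChar s T ∨ IsPOmegaPlusChar s T ∨ IsPOmegaMinusChar s T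

theorem exists_odd_char (F : Type) [Field F] [Fintype F] (h : Odd (Fintype.card F)) :
    ∃ s : ℕ, s.Prime ∧ s ≠ 2 ∧ CharP F s := by
  obtain ⟨p, hp⟩ := CharP.exists F
  have := CharP.char_is_prime F p
  refine ⟨p, this, ?_, hp⟩
  rintro rfl
  have h1 : Fact (Nat.Prime 2) := ⟨Nat.prime_two⟩
  obtain ⟨n, -, hn⟩ := FiniteField.card F 2
  rw [hn] at h
  exact absurd h (Nat.not_odd_iff_even.2 (even_two.pow_of_ne_zero n.ne_zero))

theorem odd_not_two_dvd {m : ℕ} (h : Odd m) : ¬ 2 ∣ m := fun h' => by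
  obtain ⟨k, hk⟩ := h
  omega

theorem odd_of_dvd_odd {a b : ℕ} (h : a ∣ b) (hb : Odd b) : Odd a := Odd.of_dvd_nat hb h

theorem away_odd {n : ℕ} (h : HasCyclicSchurMultiplier T n) (hn : Odd n) : Away.{u} 2 T :=
  ⟨n, kerExp_of_cyc h, odd_not_two_dvd hn⟩

theorem ev_psl (h : IsPSL T) (h20 : 2 ^ 20 ∣ Nat.card T) : Away.{u} 2 T ∨ ∃ s, s.Prime ∧ s ≠ 2 ∧ IsPSLChar s T := by
  obtain ⟨F, _, _, n, hn, h2, ⟨e⟩⟩ := h
  rcases Nat.even_or_odd (Fintype.card F) with hF | hF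
  swap
  · obtain ⟨s, h1, h3, h4⟩ := exists_odd_char F hF
    exact Or.inr ⟨s, h1, h3, F, _, _, h4, n, hn, h2, ⟨e⟩⟩
  left
  have hc := Nat.card_congr e.toEquiv
  rw [hc] at h20
  have hS := S0243.result (F := F) rfl n hn
  have h1 : 1 < Fintype.card F := Fintype.one_lt_card
  by_cases hexc : (n, Fintype.card F) ∉ ({(2, 4), (2, 9), (3, 2), (3, 4), (4, 2)} : Set (ℕ × ℕ))
  · refine (away_odd (S2086.result rfl n hn h2 hexc) ?_).congr e
    refine odd_of_dvd_odd (Nat.gcd_dvd_right _ _) ?_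
    obtain ⟨k, hk⟩ := hF
    exact ⟨k - 1, by omega⟩
  · exfalso
    rw [not_not] at hexc
    simp only [Set.mem_insert_iff, Prod.mk.injEq, Set.mem_singleton_iff] at hexc
    have h16 : 2 ^ 20 ∣ ∏ i : Fin n, ((Fintype.card F) ^ n - (Fintype.card F) ^ (i : ℕ)) := by
      rw [← hS]
      exact (h20.mul_left _).mul_left _
    rcases hexc with ⟨rfl, hq⟩ | ⟨rfl, hq⟩ | ⟨rfl, hq⟩ | ⟨rfl, hq⟩ | ⟨rfl, hq⟩ <;> rw [hq] at h16 <;>
      revert h16 <;> decide

theorem ev_psp (h : IsPSp T) (h20 : 2 ^ 20 ∣ Nat.card T) : Away.{u} 2 T ∨ ∃ s, s.Prime ∧ s ≠ 2 ∧ IsPSpChar s T := by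
  obtain ⟨F, _, _, m, hm, h2, ⟨e⟩⟩ := h
  rcases Nat.even_or_odd (Fintype.card F) with hF | hF
  swap
  · obtain ⟨s, h1, h3, h4⟩ := exists_odd_char F hF
    exact Or.inr ⟨s, h1, h3, F, _, _, h4, m, hm, h2, ⟨e⟩⟩
  left
  have h1 : 1 < Fintype.card F := Fintype.one_lt_card
  by_cases hexc : m = 3 ∧ Fintype.card F = 2
  · exfalso
    obtain ⟨rfl, hq⟩ := hexc
    rw [Nat.card_congr e.toEquiv] at h20
    have h3 := S0245.result hq 3
    have h4 := Subgroup.card_eq_card_quotient_mul_card_subgroup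
      (Subgroup.center (Matrix.symplecticGroup (Fin 3) F))
    have h5 : 2 ^ 20 ∣ Nat.card (Matrix.symplecticGroup (Fin 3) F) := by
      rw [h4]
      exact Dvd.dvd.mul_right h20 _
    rw [h3] at h5
    revert h5; decide
  · refine (away_odd (S2092.result rfl m hm h2 hexc) ?_).congr e
    refine odd_of_dvd_odd (Nat.gcd_dvd_right _ _) ?_
    obtain ⟨k, hk⟩ := hF
    exact ⟨k - 1, by omega⟩

theorem ev_psu (h : IsPSU T) (h20 : 2 ^ 20 ∣ Nat.card T) : Away.{u} 2 T ∨ ∃ s, s.Prime ∧ s ≠ 2 ∧ IsPSUChar s T := by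
  obtain ⟨F, _, _, n, q, hq, hn, h32, ⟨e⟩⟩ := h
  rcases Nat.even_or_odd q with hF | hF
  swap
  · obtain ⟨s, h1, h3, h4⟩ := exists_odd_char F (by rw [hq]; exact hF.pow)
    exact Or.inr ⟨s, h1, h3, F, _, _, h4, n, q, hq, hn, h32, ⟨e⟩⟩
  left
  have hc := Nat.card_congr e.toEquiv
  rw [hc] at h20
  have hS := S0280.result hq n (by omega)
  by_cases hexc : (n, q) ∉ ({(4, 2), (4, 3), (6, 2)} : Set (ℕ × ℕ))
  · refine (away_odd (S2089.result n q hq hn h32 hexc) ?_).congr e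
    exact odd_of_dvd_odd (Nat.gcd_dvd_right _ _) (Even.add_one hF)
  · exfalso
    rw [not_not] at hexc
    simp only [Set.mem_insert_iff, Prod.mk.injEq, Set.mem_singleton_iff] at hexc
    have h16 := (h20.mul_left (q + 1)).mul_left (Nat.gcd n (q + 1))
    rw [hS] at h16
    rcases hexc with ⟨rfl, rfl⟩ | ⟨rfl, rfl⟩ | ⟨rfl, rfl⟩
    · revert h16; decide
    · revert h16; decide
    · revert h16; decide

theorem ev_oodd (h : IsPOmegaOdd T) : ∃ s, s.Prime ∧ s ≠ 2 ∧ IsPOmegaOddChar s T := by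
  obtain ⟨F, _, _, m, hm, hF, ⟨e⟩⟩ := h
  obtain ⟨s, h1, h3, h4⟩ := exists_odd_char F hF
  exact ⟨s, h1, h3, F, _, _, h4, m, hm, hF, ⟨e⟩⟩

theorem odd_pow_sub {q l : ℕ} (hq : Even q) (h0 : 1 ≤ q ^ l) (hl : 1 ≤ l) : Odd (q ^ l - 1) := by
  have h1 : Even (q ^ l) := hq.pow_of_ne_zero (by omega)
  obtain ⟨k, hk⟩ := h1
  exact ⟨k - 1, by omega⟩

theorem ev_oplus (h : IsPOmegaPlus T) (h20 : 2 ^ 20 ∣ Nat.card T) :
    Away.{u} 2 T ∨ ∃ s, s.Prime ∧ s ≠ 2 ∧ IsPOmegaPlusChar s T := by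
  obtain ⟨F, _, _, l, hl, ⟨e⟩⟩ := h
  have h1 : 1 < Fintype.card F := Fintype.one_lt_card
  rcases Nat.even_or_odd (Fintype.card F) with hF | hF
  swap
  · obtain ⟨s, h1, h3, h4⟩ := exists_odd_char F hF
    exact Or.inr ⟨s, h1, h3, F, inferInstance, inferInstance, h4, l, hl, ⟨e⟩⟩
  left
  rcases Nat.even_or_odd l with he | ho
  · by_cases hexc : l = 4 ∧ Fintype.card F = 2
    · exfalso
      obtain ⟨rfl, hq⟩ := hexc
      rw [Nat.card_congr e.toEquiv] at h20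
      have h16 := h20.mul_left (Nat.gcd 4 (2 ^ 4 - 1))
      rw [S0293.result hq 4 (le_refl _)] at h16
      revert h16; decide
    · have hS := S2097.result rfl l hl he hexc (F := F)
      refine Away.congr ⟨1, kerExp_of_mult hS ?_, by decide⟩ e
      have hg : Nat.gcd 2 (Fintype.card F ^ l - 1) = 1 :=
        Nat.coprime_two_left.2 (odd_pow_sub hF (Nat.one_le_pow _ _ (by omega)) (by omega))
      rw [hg]
      intro a
      exact Subsingleton.elim _ _
  · refine (away_odd (S2096.result rfl l (by obtain ⟨k, hk⟩ := ho; omega) ho) ?_).congr e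
    exact odd_of_dvd_odd (Nat.gcd_dvd_right _ _)
      (odd_pow_sub hF (Nat.one_le_pow _ _ (by omega)) (by omega))

theorem ev_ominus (h : IsPOmegaMinus T) : Away.{u} 2 T ∨ ∃ s, s.Prime ∧ s ≠ 2 ∧ IsPOmegaMinusChar s T := by
  obtain ⟨F, _, _, l, a, b, hl, hab, ⟨e⟩⟩ := h
  rcases Nat.even_or_odd (Fintype.card F) with hF | hF
  swap
  · obtain ⟨s, h1, h3, h4⟩ := exists_odd_char F hF
    exact Or.inr ⟨s, h1, h3, F, inferInstance, inferInstance, h4, l, a, b, hl, hab, ⟨e⟩⟩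
  left
  refine (away_odd (S2099.result rfl l hl a b hab) ?_).congr e
  exact odd_of_dvd_odd (Nat.gcd_dvd_right _ _) (Even.add_one (hF.pow_of_ne_zero (by omega)))

end Cfsg.Agent.H888.C6
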