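import Cfsg.Agent.H888.C6.PlusFin
import Cfsg.Agent.H888.C6.ClDeg
import Cfsg.Agent.H742.ClOrd

/-!
# Class 6 in `Ω⁺`, from the outcome (helper888)
-/

set_option autoImplicit false

namespace Cfsg.Agent.H888.C6

open Cfsg Cfsg.Geo Matrix Cfsg.Agent.ClassicalGeometry.SympBasic Cfsg.Agent.H920 Cfsg.Agent.H919

universe u

/-- **Class 6 in `Ω⁺`.** -/
theorem max_plus {F : Type u} [Field F] [Fintype F] {n : ℕ} (hn : 13 ≤ n) (Q : (Fin n → F) → F)
    (hQ : IsNondegenerateQuadraticForm Q) (hplus : IsPlusTypeOn Q ⊤) (p k : ℕ) (hp : p.Prime) (hpo : Odd p)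
    (hF : Fintype.card F = p) (R : Subgroup (GL (Fin n) F)) (hR : IsSymplecticTypeGroup 2 R)
    (hirr : ActsAbsolutelyIrreducibly (matrixSet R)) (hRD : R ≤ isometryGroup F Q)
    (hcard : Nat.card R = 2 ^ (1 + 2 * k)) (hZ : Nat.card (Subgroup.center R) = 2)
    (hsch : ∀ P : Subgroup (GL (Fin n) F), IsSimpleGroup (QY P) → ¬ IsMulCommutative (QY P) →
      Schreier.Basic.Sch (QY P))
    (hout : ∀ (C : Coord R 2 k) (q : V2 k → ZMod 2) (Y P : Subgroup (GL (Fin n) F)), Over C q Y P →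
      ClDeg (2 ^ k) p (QY P)) :
    IsMaximalIn (omegaGL Q) (subgroupNormalizer R ⊓ omegaGL Q) := by
  have hpf : Fact p.Prime := ⟨hp⟩
  have hchar : CharP F p := charP_of_card_eq_prime hF
  have hp2 : p ≠ 2 := by
    rintro rfl
    exact absurd hpo (by decide)
  have h2 : (2 : F) ≠ 0 := by
    intro h
    have h1 : ((2 : ℕ) : F) = 0 := by exact_mod_cast h
    exact hp2 ((Nat.prime_dvd_prime_iff_eq hp Nat.prime_two).1 ((CharP.cast_eq_zero_iff F p 2).1 h1))
  have hne : Nonempty (Fin n) := ⟨⟨0, by omega⟩⟩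
  have hdim0 : Fintype.card (Fin n) = 2 ^ k := H921.card_eq_pow_of_center_prime hR hirr hZ hcard
  rw [Fintype.card_fin] at hdim0
  have hk4 : 4 ≤ k := by
    by_contra hlt
    have h1 : 2 ^ k ≤ 2 ^ 3 := Nat.pow_le_pow_right (by norm_num) (by omega)
    have h3 : (2 : ℕ) ^ 3 = 8 := by norm_num
    omega
  obtain ⟨hdim, C, q, T⟩ := exists_TC h2 hR hirr hcard hZ (show 1 ≤ k by omega)
  obtain ⟨Y, hY, hYX, -⟩ := T.exists_Y (by omega) hRD (pairsIn_isometry T hQ hRD)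
  have hYΩ : Y ≤ omegaGL Q := le_omega hY.perfect hYX
  have hR2 : IsPGroup 2 R := IsPGroup.of_card hcard
  have hn5 : 5 ≤ Fintype.card (Fin n) := by rw [Fintype.card_fin]; omega
  have hsc : ∀ z ∈ scalars (Fin n) F, z ∈ omegaGL Q → (z : Matrix (Fin n) (Fin n) F) = 1 ∨
      (z : Matrix (Fin n) (Fin n) F) = -1 := fun z hz hzX => scalar_iso hQ hz (omega_le_iso Q hzX)
  refine max_of T hk4 hirr hR2 hdim hY hYΩ hsc hsch ?_
    (not_le_norm T (by omega) hR2 hY hYΩ (qs_omega hQ hn5))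
  intro P hPX O
  obtain ⟨m, hm⟩ : ∃ m, n = 2 * m := ⟨2 ^ (k - 1), by rw [hdim0, ← pow_succ']; congr 1; omega⟩
  have h2k : 2 ^ k = 2 * m := hdim0.symm.trans hm
  have hcl : ClDeg (2 * m) p (QY P) := by
    have := hout C q Y P O
    rwa [h2k] at this
  have hm8 : 8 ≤ m := by
    have h1 : 2 ^ 4 ≤ 2 ^ k := Nat.pow_le_pow_right (by norm_num) hk4
    have h3 : (2 : ℕ) ^ 4 = 16 := by norm_num
    omega
  have hX : Nat.card (QY (omegaGL Q)) = Nat.card (POmega F (quadFormPlus m F)) := by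
    rw [card_QY_omega hQ hn5, card_pomega_plus (by omega) hm hQ hplus]
  have hd : Nat.card (QY P) ∣ Nat.card (POmega F (quadFormPlus m F)) := by
    rw [← hX]; exact card_quot_dvd hPX
  have h3 := H742.ClOrd.plus_card hp hp2 hm8 hF hcl hd
  refine eq_of_card_quot hPX ?_ (by rw [hX, h3])
  intro z hz hzX
  obtain ⟨w, hw⟩ := O.exists_neg
  rcases hsc z hz hzX with h | h
  · have : z = 1 := Units.ext h
    rw [this]; exact P.one_mem
  · have : z = w := Units.ext (h.trans hw.symm)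
    rw [this]; exact O.le (O.yc.le w.2)

end Cfsg.Agent.H888.C6
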